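import Mathlib
import Cfsg.Agent.Lib.Helper33.Breadth.Defs

set_option autoImplicit false

/-! BREADTH (S3777) packages [NORM], [SUBIDX], [CARD] (helper97). -/

namespace Cfsg.Agent.Lib.Helper97.Breadth

universe u

/-- [NORM]. -/
theorem pkgNorm : Cfsg.Agent.Lib.Helper33.Breadth.PkgNorm.{u} := by
  intro G _ _ p hp hG C hC
  apply Subgroup.normal_of_index_eq_minFac_card
  obtain ⟨n, hn⟩ := IsPGroup.iff_card.mp hG
  have hdvd : p ∣ Nat.card G := hC ▸ Subgroup.index_dvd_card C
  have hn0 : n ≠ 0 := by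
    rintro rfl
    rw [hn, pow_zero] at hdvd
    exact hp.out.one_lt.ne' (Nat.dvd_one.mp hdvd)
  rw [hC, hn, Nat.Prime.pow_minFac hp.out hn0]

/-- [SUBIDX]. -/
theorem pkgSubIdx : Cfsg.Agent.Lib.Helper33.Breadth.PkgSubIdx.{u} := by
  intro G _ _ p hp hG M C hM hC hne
  have : C.Normal := pkgNorm p hG C hC
  change C.relIndex M = p
  have hsup : M ⊔ C = ⊤ := by
    have h1 : C.relIndex (M ⊔ C) * (M ⊔ C).index = p := by
      rw [Subgroup.relIndex_mul_index le_sup_right, hC]
    have h2 : (M ⊔ C).index ∣ p := Dvd.intro_left _ h1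
    rcases (Nat.dvd_prime hp.out).mp h2 with h3 | h3
    · exact Subgroup.index_eq_one.mp h3
    · exfalso
      rw [h3] at h1
      have h4 : C.relIndex (M ⊔ C) = 1 := by
        have hp0 : 0 < p := hp.out.pos
        exact Nat.eq_of_mul_eq_mul_right hp0 (by rw [h1, one_mul])
      have h5 : M ⊔ C ≤ C := Subgroup.relIndex_eq_one.mp h4
      have h6 : M ≤ C := le_sup_left.trans h5
      have h7 : M.relIndex C * C.index = M.index := Subgroup.relIndex_mul_index h6
      rw [hC, hM] at h7
      have h8 : M.relIndex C = 1 := by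
        have hp0 : 0 < p := hp.out.pos
        exact Nat.eq_of_mul_eq_mul_right hp0 (by rw [h7, one_mul])
      exact hne (le_antisymm h6 (Subgroup.relIndex_eq_one.mp h8))
  rw [← Subgroup.relIndex_sup_right (K := C) (H := M), hsup, Subgroup.relIndex_top_right, hC]

/-- [CARD]. -/
theorem pkgCommCard : Cfsg.Agent.Lib.Helper33.Breadth.PkgCommCard.{u} := by
  intro G _ M
  have h1 : Subgroup.map M.subtype (commutator ↥M) = ⁅M, M⁆ := by
    rw [commutator_def, Subgroup.map_commutator, ← MonoidHom.range_eq_map, Subgroup.range_subtype]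
  rw [← h1]
  exact (Subgroup.card_map_of_injective (Subgroup.subtype_injective M)).symm

end Cfsg.Agent.Lib.Helper97.Breadth
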